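import Mathlib
import Cfsg.Agent.Lib.Helper55.QSim.R35Defs
import Cfsg.Agent.Lib.Helper40.Diag

set_option autoImplicit false

/-!
QSIM (S5981) sub-package [R35D]: an element of `GL_n(F)` of order dividing a prime `r ∣ q - 1` is
diagonalisable with diagonal entries `r`-th roots of unity.
-/

namespace Cfsg.Agent.Lib.Helper87.QSim

open Polynomial Matrix
open Cfsg.Agent.Lib.Helper55.QSim

universe u

theorem pkgR35D : PkgR35D.{u} := by
  intro F _ _ n r hr hdvd x hx
  classical
  haveI : Fact r.Prime := ⟨hr⟩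
  have hdvd' : r ∣ Fintype.card Fˣ := by rw [Fintype.card_units]; exact hdvd
  obtain ⟨ζ, hζ⟩ := exists_prime_orderOf_dvd_card r hdvd'
  have hprim : IsPrimitiveRoot (ζ : F) r := by
    rw [IsPrimitiveRoot.coe_units_iff, ← hζ]
    exact IsPrimitiveRoot.orderOf ζ
  have hprod := X_pow_sub_one_eq_prod hr.pos hprim
  set S : Finset F := nthRootsFinset r (1 : F) with hS
  have hM : aeval (x : Matrix (Fin n) (Fin n) F) (∏ ζ ∈ S, (X - C ζ)) = 0 := by
    rw [← hprod]
    simp only [map_sub, map_pow, aeval_X, map_one]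
    rw [← Units.val_pow_eq_pow_val, hx, Units.val_one, sub_self]
  have hsum := Cfsg.Agent.Lib.Helper40.Diag.sum_sub_rank (x : Matrix (Fin n) (Fin n) F) S hM
  have hsum' : ∑ j : {y // y ∈ S},
      (n - ((x : Matrix (Fin n) (Fin n) F) - (j : F) • 1).rank) = n := by
    rw [Finset.sum_coe_sort S (fun ζ => n - ((x : Matrix (Fin n) (Fin n) F) - ζ • 1).rank)]
    exact hsum
  obtain ⟨t, ht⟩ := Cfsg.Agent.Lib.Helper40.Diag.exists_fibre_card
    (fun j : {y // y ∈ S} => n - ((x : Matrix (Fin n) (Fin n) F) - (j : F) • 1).rank) hsum'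
  have hd : ∀ i, ((t i : F)) ^ r = 1 := fun i => (mem_nthRootsFinset hr.pos 1).1 (t i).2
  have hM' : aeval (Matrix.diagonal (fun i => (t i : F))) (∏ ζ ∈ S, (X - C ζ)) = 0 := by
    rw [← hprod]
    simp only [map_sub, map_pow, aeval_X, map_one]
    rw [Matrix.diagonal_pow]
    have h1 : ((fun i => (t i : F)) ^ r : Fin n → F) = fun _ => 1 := by
      funext i
      rw [Pi.pow_apply]
      exact hd i
    rw [h1, Matrix.diagonal_one, sub_self]
  obtain ⟨P, hP⟩ := Cfsg.Agent.Lib.Helper40.Diag.similar_of_rank_eq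
    (x : Matrix (Fin n) (Fin n) F) (Matrix.diagonal (fun i => (t i : F))) S hM hM' (by
      intro ζ' hζ'
      have h1 := Cfsg.Agent.Lib.Helper40.Diag.rank_diagonal_sub (fun i => (t i : F)) ζ'
      have h2 := ht ⟨ζ', hζ'⟩
      have h3 : Fintype.card {i // (t i : F) = ζ'} = Fintype.card {i // t i = ⟨ζ', hζ'⟩} := by
        apply Fintype.card_congr
        apply Equiv.subtypeEquivRight
        intro i
        rw [Subtype.ext_iff]
      have h4 := Matrix.rank_le_width ((x : Matrix (Fin n) (Fin n) F) - ζ' • 1)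
      simp only at h2
      omega)
  exact ⟨P, fun i => (t i : F), hd, hP⟩

end Cfsg.Agent.Lib.Helper87.QSim
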