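import Mathlib
import Cfsg.Agent.Lib.Helper55.QSim.R35Defs

set_option autoImplicit false

/-!
QSIM (S5981) sub-package [R35Z]: for `x ∈ SL_r(F)` with `x ^ r = z • 1`, `r` an odd prime with
`v_r(q - 1) = 1`, the scalar `z` is `1`.
-/

namespace Cfsg.Agent.Lib.Helper87.QSim

open Polynomial Matrix
open Cfsg.Agent.Lib.Helper55.QSim

universe u

theorem pkgR35Z : PkgR35Z.{u} := by
  intro F _ _ r hr hr2 hval x z hx hxr
  haveI : Fact r.Prime := ⟨hr⟩
  haveI : NeZero r := ⟨hr.ne_zero⟩
  have hdet : (x : Matrix (Fin r) (Fin r) F).det = 1 := by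
    have h1 : Matrix.GeneralLinearGroup.det x = 1 := hx
    have h2 := congrArg Units.val h1
    simpa using h2
  have hzr : z ^ r = 1 := by
    have h1 := congrArg Matrix.det hxr
    rw [Units.val_pow_eq_pow_val, Matrix.det_pow, hdet, one_pow, Matrix.det_smul, Matrix.det_one,
      mul_one, Fintype.card_fin] at h1
    exact h1.symm
  by_contra hz1
  have hz0 : z ≠ 0 := by
    rintro rfl
    rw [zero_pow hr.ne_zero] at hzr
    exact zero_ne_one hzr
  have hnot : ∀ b : F, b ^ r ≠ z := by
    intro b hb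
    have hb0 : b ≠ 0 := by
      rintro rfl
      rw [zero_pow hr.ne_zero] at hb
      exact hz0 hb.symm
    have ho : orderOf b = r ^ (1 + 1) := by
      apply orderOf_eq_prime_pow
      · rw [pow_one, hb]; exact hz1
      · rw [pow_succ, pow_one, pow_mul, hb, hzr]
    have hdvd : r ^ (1 + 1) ∣ Fintype.card F - 1 := by
      rw [← ho]
      exact orderOf_dvd_of_pow_eq_one (FiniteField.pow_card_sub_one_eq_one b hb0)
    have hne : Fintype.card F - 1 ≠ 0 := by
      intro h0
      rw [h0] at hval
      simp at hval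
    have := (padicValNat_dvd_iff_le hne).1 hdvd
    omega
  have hirr : Irreducible (X ^ r - C z : F[X]) := X_pow_sub_C_irreducible_of_prime hr hnot
  have hmonic : (X ^ r - C z : F[X]).Monic := monic_X_pow_sub_C z hr.ne_zero
  have haeval : aeval (x : Matrix (Fin r) (Fin r) F) (X ^ r - C z : F[X]) = 0 := by
    simp only [map_sub, map_pow, aeval_X, aeval_C]
    rw [← Units.val_pow_eq_pow_val, hxr, Algebra.algebraMap_eq_smul_one]
    exact sub_self _
  have hmin : (X ^ r - C z : F[X]) = minpoly F (x : Matrix (Fin r) (Fin r) F) :=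
    minpoly.eq_of_irreducible_of_monic hirr haeval hmonic
  have hdvd : (X ^ r - C z : F[X]) ∣ (x : Matrix (Fin r) (Fin r) F).charpoly := by
    rw [hmin]; exact Matrix.minpoly_dvd_charpoly _
  have hchar : (x : Matrix (Fin r) (Fin r) F).charpoly = X ^ r - C z := by
    apply Polynomial.eq_of_monic_of_dvd_of_natDegree_le hmonic (Matrix.charpoly_monic _) hdvd
    rw [Matrix.charpoly_natDegree_eq_dim, Fintype.card_fin, natDegree_X_pow_sub_C]
  have h3 := Matrix.det_eq_sign_charpoly_coeff (x : Matrix (Fin r) (Fin r) F)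
  rw [hchar, hdet, Fintype.card_fin] at h3
  simp only [coeff_sub, coeff_X_pow, coeff_C_zero] at h3
  rw [if_neg (Ne.symm hr.ne_zero)] at h3
  have hodd : Odd r := hr.odd_of_ne_two hr2
  rw [hodd.neg_one_pow] at h3
  apply hz1
  linear_combination -h3

end Cfsg.Agent.Lib.Helper87.QSim
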